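import Cfsg.Agent.Lib.Helper18.StSteinE8.DAll

/-!
# Type E₈: every decomposition is reached, part 3
-/

set_option autoImplicit false

namespace Cfsg.Agent.Lib.Helper18.StAbs

open Cfsg Cfsg.Lie Cfsg.Lie.ChevalleyDatum

set_option maxRecDepth 100000 in
theorem covchk_E8_2 : covF chevE8 gcE8 (List.range' 120 60) = true := by decide +kernel

end Cfsg.Agent.Lib.Helper18.StAbs
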