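import Cfsg.Agent.Lib.Helper18.StSteinE8.G5

/-!
# Type E₈: the decompositions of the roots, check, part 6, second half
-/

set_option autoImplicit false

namespace Cfsg.Agent.Lib.Helper18.StAbs

open Cfsg Cfsg.Lie Cfsg.Lie.ChevalleyDatum

set_option maxRecDepth 100000 in
theorem gchk_E8_5b : gChunkF chevE8 (gcE8_5.drop 15) = true := by decide +kernel

end Cfsg.Agent.Lib.Helper18.StAbs
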