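import Cfsg.Agent.Lib.Helper18.StSteinE8.H00
import Cfsg.Agent.Lib.Helper18.StSteinE8.H01
import Cfsg.Agent.Lib.Helper18.StSteinE8.H02
import Cfsg.Agent.Lib.Helper18.StSteinE8.H03
import Cfsg.Agent.Lib.Helper18.StSteinE8.H04
import Cfsg.Agent.Lib.Helper18.StSteinE8.H05
import Cfsg.Agent.Lib.Helper18.StSteinE8.H06
import Cfsg.Agent.Lib.Helper18.StSteinE8.H07
import Cfsg.Agent.Lib.Helper18.StSteinE8.H08
import Cfsg.Agent.Lib.Helper18.StSteinE8.H09
import Cfsg.Agent.Lib.Helper18.StSteinE8.H10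
import Cfsg.Agent.Lib.Helper18.StSteinE8.H11
import Cfsg.Agent.Lib.Helper18.StSteinE8.H12
import Cfsg.Agent.Lib.Helper18.StSteinE8.H13
import Cfsg.Agent.Lib.Helper18.StSteinE8.H14
import Cfsg.Agent.Lib.Helper18.StSteinE8.H15
import Cfsg.Agent.Lib.Helper18.StSteinE8.G0
import Cfsg.Agent.Lib.Helper18.StSteinE8.G1
import Cfsg.Agent.Lib.Helper18.StSteinE8.G2
import Cfsg.Agent.Lib.Helper18.StSteinE8.G3
import Cfsg.Agent.Lib.Helper18.StSteinE8.G4
import Cfsg.Agent.Lib.Helper18.StSteinE8.G5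
import Cfsg.Agent.Lib.Helper18.StSteinE8.G5b
import Cfsg.Agent.Lib.Helper18.StSteinE8.G6
import Cfsg.Agent.Lib.Helper18.StSteinE8.G7
import Cfsg.Agent.Lib.Helper18.StSteinE8.G7b
import Cfsg.Agent.Lib.Helper18.StSteinE8.C0
import Cfsg.Agent.Lib.Helper18.StSteinE8.C1
import Cfsg.Agent.Lib.Helper18.StSteinE8.C2
import Cfsg.Agent.Lib.Helper18.StSteinE8.C3
import Cfsg.Agent.Lib.Helper18.StCert.E8x

/-!
# Type E₈: the group presented by (R1), (R2) is centrally closed, over any field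

Assembly of the checks of this folder: every central extension of the group presented by Steinberg's
relators (R1), (R2) of type E₈ over an arbitrary field splits, and homomorphisms from it lift
uniquely through central extensions.
-/

set_option autoImplicit false

namespace Cfsg.Agent.Lib.Helper18.StAbs

open Cfsg Cfsg.Lie Cfsg.Lie.ChevalleyDatum

set_option maxRecDepth 100000 in
theorem cover_gcE8 : gcE8.map Prod.fst = List.range chevE8.nroots := by decide +kernel

set_option maxRecDepth 100000 in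
theorem h1cover_E8 : (h1E8_00 ++ h1E8_01 ++ h1E8_02 ++ h1E8_03 ++ h1E8_04 ++ h1E8_05 ++ h1E8_06 ++ h1E8_07 ++ h1E8_08 ++ h1E8_09 ++ h1E8_10 ++ h1E8_11 ++ h1E8_12 ++ h1E8_13 ++ h1E8_14 ++ h1E8_15).map Prod.fst =
    List.range chevE8.nroots := by decide +kernel

theorem h1_E8 : ∀ α β, ComP chevE8 α β →
    ∃ a b C, SumP chevE8 a b β C ∧ ComP chevE8 α a ∧ ComP chevE8 α b := by
  intro α β h
  obtain ⟨x, hx, rfl⟩ := cover_of_eq' chevE8.nroots _ h1cover_E8 α h.1
  simp only [List.mem_append] at hx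
  rcases hx with ((((((((((((((hx | hx) | hx) | hx) | hx) | hx) | hx) | hx) | hx) | hx) | hx) | hx) | hx) | hx) | hx) | hx
  · exact h1_of_chunkF chevE8 _ h1chk_E8_00 x hx β h
  · exact h1_of_chunkF chevE8 _ h1chk_E8_01 x hx β h
  · exact h1_of_chunkF chevE8 _ h1chk_E8_02 x hx β h
  · exact h1_of_chunkF chevE8 _ h1chk_E8_03 x hx β h
  · exact h1_of_chunkF chevE8 _ h1chk_E8_04 x hx β h
  · exact h1_of_chunkF chevE8 _ h1chk_E8_05 x hx β h
  · exact h1_of_chunkF chevE8 _ h1chk_E8_06 x hx β h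
  · exact h1_of_chunkF chevE8 _ h1chk_E8_07 x hx β h
  · exact h1_of_chunkF chevE8 _ h1chk_E8_08 x hx β h
  · exact h1_of_chunkF chevE8 _ h1chk_E8_09 x hx β h
  · exact h1_of_chunkF chevE8 _ h1chk_E8_10 x hx β h
  · exact h1_of_chunkF chevE8 _ h1chk_E8_11 x hx β h
  · exact h1_of_chunkF chevE8 _ h1chk_E8_12 x hx β h
  · exact h1_of_chunkF chevE8 _ h1chk_E8_13 x hx β h
  · exact h1_of_chunkF chevE8 _ h1chk_E8_14 x hx β h
  · exact h1_of_chunkF chevE8 _ h1chk_E8_15 x hx β h

theorem good_E8 : ∀ c ∈ gcE8, gB chevE8 c = true := by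
  intro c hc
  unfold gcE8 at hc
  simp only [List.mem_append] at hc
  rcases hc with ((((((hc | hc) | hc) | hc) | hc) | hc) | hc) | hc
  · exact g_of_chunkF chevE8 _ gchk_E8_0 c hc
  · exact g_of_chunkF chevE8 _ gchk_E8_1 c hc
  · exact g_of_chunkF chevE8 _ gchk_E8_2 c hc
  · exact g_of_chunkF chevE8 _ gchk_E8_3 c hc
  · exact g_of_chunkF chevE8 _ gchk_E8_4 c hc
  · rw [← List.take_append_drop 15 gcE8_5, List.mem_append] at hc
    rcases hc with hc | hc
    · exact g_of_chunkF chevE8 _ gchk_E8_5a c hc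
    · exact g_of_chunkF chevE8 _ gchk_E8_5b c hc
  · exact g_of_chunkF chevE8 _ gchk_E8_6 c hc
  · rw [← List.take_append_drop 15 gcE8_7, List.mem_append] at hc
    rcases hc with hc | hc
    · exact g_of_chunkF chevE8 _ gchk_E8_7a c hc
    · exact g_of_chunkF chevE8 _ gchk_E8_7b c hc

theorem cov_E8 : ∀ r < chevE8.nroots, covRowB chevE8 gcE8 r = true := by
  intro r hr
  have hn : chevE8.nroots = 240 := by decide
  rw [hn] at hr
  rcases Nat.lt_or_ge r 60 with h1 | h1
  · exact cov_of_chunkF chevE8 gcE8 _ covchk_E8_0 r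
      (List.mem_range'_1.mpr ⟨by omega, by omega⟩)
  rcases Nat.lt_or_ge r 120 with h2 | h2
  · exact cov_of_chunkF chevE8 gcE8 _ covchk_E8_1 r
      (List.mem_range'_1.mpr ⟨by omega, by omega⟩)
  rcases Nat.lt_or_ge r 180 with h3 | h3
  · exact cov_of_chunkF chevE8 gcE8 _ covchk_E8_2 r
      (List.mem_range'_1.mpr ⟨by omega, by omega⟩)
  · exact cov_of_chunkF chevE8 gcE8 _ covchk_E8_3 r
      (List.mem_range'_1.mpr ⟨by omega, by omega⟩)

open Cfsg.Agent.Lib.Helper17 in
/-- every central extension of the group presented by (R1), (R2) of type E₈ splits -/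
theorem cover_section_E8 {K : Type*} [Field K] {E : Type*} [Group E]
    (ψ : E →* chevE8.SteinbergCover K) (hs : Function.Surjective ψ)
    (hc : ψ.ker ≤ Subgroup.center E) :
    ∃ φ : chevE8.SteinbergCover K →* E, ψ.comp φ = MonoidHom.id _ := by
  classical
  have hD : chevE8 ∈ [chevG2, chevB2, chevD4, chevF4, chevE6, chevE7, chevE8] := by simp
  have hX : Rel chevE8 (XP chevE8 (chevE8.steinbergRelsAB K)) :=
    pres_rel chevE8 _ (fun g hg => hg)
  let θ : chevE8.SteinbergCover K →* ↥(chevE8.group K) :=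
    PresentedGroup.toGroup (relsAB_lift (K := K) chevE8 hD)
  let π : chevE8.SteinbergCover K →* GL chevE8.Idx K := (chevE8.group K).subtype.comp θ
  have hπ : ∀ r < chevE8.nroots, ∀ t,
      π (XP chevE8 (chevE8.steinbergRelsAB K) r t) = xU chevE8 hD r t :=
    fun r _ t => lift_stX (K := K) chevE8 hD r t
  have hinj : ∀ g < chevE8.nroots, ∀ v v' : K, XP chevE8 (chevE8.steinbergRelsAB K) g v =
      XP chevE8 (chevE8.steinbergRelsAB K) g v' → v = v' := by
    intro g hg v v' h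
    have h1 := congrArg π h
    rw [hπ g hg, hπ g hg] at h1
    exact xU_inj chevE8 hD g hg v v' h1
  obtain ⟨hb, hr⟩ := stein_hyps chevE8 gcE8 cover_gcE8 good_E8 cov_E8
  obtain ⟨hY, hpsi⟩ := stein_rel ψ hs hc (baseF gcE8) sl_E8 hX hinj h1_E8 hb hr
  have hge : ∀ γ, chevE8.nroots ≤ γ → ∀ t : K,
      xs chevE8 (XP chevE8 (chevE8.steinbergRelsAB K)) ψ hs (baseF gcE8) γ t = 1 :=
    fun γ hγ t => xs_ge ψ hs (baseF gcE8) γ hγ t
  refine ⟨PresentedGroup.toGroup (relsAB_liftY _ hY hge), ?_⟩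
  apply PresentedGroup.ext
  intro p
  rw [MonoidHom.comp_apply, PresentedGroup.toGroup.of, MonoidHom.id_apply,
    hpsi p.1.val p.1.isLt p.2]
  unfold XP ChevalleyDatum.stX
  rw [dif_pos p.1.isLt]
  rfl

/-- over any field, homomorphisms from the group presented by (R1), (R2) of type E₈ lift uniquely
through central extensions -/
theorem univ_E8 {K : Type*} [Field K] {G₁ E : Type*} [Group G₁] [Group E] (π₁ : E →* G₁)
    (hπ₁ : Function.Surjective π₁) (hc : π₁.ker ≤ Subgroup.center E)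
    (σ : chevE8.SteinbergCover K →* G₁) :
    ∃! τ : chevE8.SteinbergCover K →* E, π₁.comp τ = σ := by
  have hne : chevE8 ∈ [chevB2, chevG2] → ∃ x : K, x ≠ 0 ∧ x ≠ 1 := by
    intro h
    exfalso
    simp only [List.mem_cons, List.mem_nil_iff, or_false] at h
    rcases h with h | h
    · have h1 := congrArg ChevalleyDatum.nroots h
      exact absurd h1 (by decide)
    · have h1 := congrArg ChevalleyDatum.nroots h
      exact absurd h1 (by decide)
  have hperf : commutator (chevE8.SteinbergCover K) = ⊤ :=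
    StCov.cover_perfect chevE8 (by simp) hne
  obtain ⟨τ, hτ⟩ := CExt.lift_of_section
    (fun P ψ hs hc' => cover_section_E8 ψ hs hc') π₁ hπ₁ hc σ
  exact ⟨τ, hτ, fun τ' hτ' => CExt.lift_unique hperf π₁ hc τ' τ (by rw [hτ', hτ])⟩

end Cfsg.Agent.Lib.Helper18.StAbs
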