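import Cfsg.Agent.Lib.Helper18.StSteinE8.D0
import Cfsg.Agent.Lib.Helper18.StSteinE8.D1
import Cfsg.Agent.Lib.Helper18.StSteinE8.D2
import Cfsg.Agent.Lib.Helper18.StSteinE8.D3
import Cfsg.Agent.Lib.Helper18.StSteinE8.D4
import Cfsg.Agent.Lib.Helper18.StSteinE8.D5
import Cfsg.Agent.Lib.Helper18.StSteinE8.D6
import Cfsg.Agent.Lib.Helper18.StSteinE8.D7

/-!
# Type E₈: the decompositions of the roots, all data
-/

set_option autoImplicit false

namespace Cfsg.Agent.Lib.Helper18.StAbs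

open Cfsg Cfsg.Lie Cfsg.Lie.ChevalleyDatum

/-- the certificates of all roots -/
def gcE8 : List GCert :=
  gcE8_0 ++ gcE8_1 ++ gcE8_2 ++ gcE8_3 ++ gcE8_4 ++ gcE8_5 ++ gcE8_6 ++ gcE8_7

end Cfsg.Agent.Lib.Helper18.StAbs
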